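import Cfsg.Agent.H983.ElPar.SylZ
import Cfsg.Agent.H686.SqPlus

/-!
# `PΩ⁺_{2m}(q)`, `(m, q) ≠ (4, 2)` (helper983)

The argument of helper686 (`H686/SqPlus.lean`) for subgroups of index prime to `p`.
-/

set_option autoImplicit false
set_option linter.unusedSectionVars false

namespace Cfsg.Agent.H983.ElPar

open MulAction QuadraticMap Cfsg.Agent.H686.SqGen Cfsg.Agent.H686.SqSmall Cfsg.Agent.H686.SqPlus Cfsg.Agent.H436
  Cfsg.Agent.LieClassical.OrthCore Cfsg.Agent.LieClassical.OrthTrans
open Cfsg.Agent.LieClassical Cfsg.Agent.LieClassical.OrthFinite Cfsg.Agent.LieClassical.OrthForms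
open Cfsg.Agent.H396 (Der der_of_prime)

variable {F : Type} [Field F] [Fintype F]

theorem np_po_plus {p m : ℕ} [CharP F p] (hm : 4 ≤ m) (hex : ¬ (Fintype.card F = 2 ∧ m = 4))
    [IsSimpleGroup (Cfsg.POmega F (Cfsg.quadFormPlus m F))]
    (hcm : ∃ a b : Cfsg.POmega F (Cfsg.quadFormPlus m F), a * b ≠ b * a) :
    NP p (Cfsg.POmega F (Cfsg.quadFormPlus m F)) := by
  classical
  have hp : Fact p.Prime := ⟨CharP.char_is_prime F p⟩
  have hq : Nat.card F = Fintype.card F := Nat.card_eq_fintype_card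
  have hq1 : 1 < Fintype.card F := Fintype.one_lt_card
  have hfin : Finite (Cfsg.POmega F (Cfsg.quadFormPlus m F)) := Quotient.finite _
  refine np_of_loc (KFacts.RgdLieCharP.hasFilt_of_lie (Or.inr (Or.inr (Or.inr (Or.inr (Or.inl
    ⟨F, inferInstance, inferInstance, inferInstance, m, hm, ⟨MulEquiv.refl _⟩⟩)))))) hcm ?_
  -- the model
  have hG : Good (plusForm m F) := by
    apply good_of_finite (nondeg_plusForm m F)
    rw [Module.finrank_fintype_fun_eq_card, Fintype.card_sum, Fintype.card_fin]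
    omega
  let e : Cfsg.POmega F (Cfsg.quadFormPlus m F) ≃*
      (↥(E (plusForm m F)) ⧸ Subgroup.center ↥(E (plusForm m F))) := by
    rw [← coe_plusForm]
    exact quotientCenterCongr ((omegaEquiv (plusForm m F)).trans (MulEquiv.subgroupCongr hG.commutator_eq_E))
  suffices hmain : ∀ M : Subgroup (↥(E (plusForm m F)) ⧸ Subgroup.center ↥(E (plusForm m F))), Loc p M → Der _ M by
    intro M hM
    have h1 := hmain _ (hM.comap e.symm)
    exact Cfsg.Agent.H396.Der.congr e.symm h1
  intro M hM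
  obtain ⟨V, hV, hVp, hMV⟩ := hM.exV
  have hidx := hM.idx
  obtain ⟨P, hP, hPp, hMP⟩ := exists_pgroup
    (QuotientGroup.mk' (Subgroup.center ↥(E (plusForm m F)))) (QuotientGroup.mk'_surjective _)
    (by rw [QuotientGroup.ker_mk']) hV hVp hMV
  set M' := M.comap (QuotientGroup.mk' (Subgroup.center ↥(E (plusForm m F)))) with hM'
  have hidx' : M'.index = M.index := Subgroup.index_comap_of_surjective M (QuotientGroup.mk'_surjective _)
  obtain ⟨R, hR0, hRinv, hRiso, hRle⟩ := exists_isotropic (p := p) (frm hG.nondeg) hP hPp hMP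
  obtain ⟨v, hv, hv0, hQv⟩ := exists_sing hG (p := p) (fun c hc => card_norm m (by omega) c hc)
    (M := M') (by rw [hidx']; exact hidx) hR0 hRinv
  have hcV : Nat.card (Fin m ⊕ Fin m → F) = Fintype.card F ^ (2 * m) := by
    rw [Nat.card_eq_fintype_card, Fintype.card_fun, Fintype.card_sum, Fintype.card_fin, two_mul]
  have h0 : Nat.card {v : Fin m ⊕ Fin m → F | plusForm m F v = 0} =
      Fintype.card F ^ (2 * m - 1) + Fintype.card F ^ m - Fintype.card F ^ (m - 1) := by
    have h1 : {v : Fin m ⊕ Fin m → F | plusForm m F v = 0} = {v | Cfsg.quadFormPlus m F v = 0} := by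
      rw [coe_plusForm]
    rw [h1]
    exact S0289.result (F := F) rfl m (by omega)
  obtain ⟨u, hu⟩ := exists_prim (q := Fintype.card F) (e := 2 * m - 2) hq1 (by omega) (by omega)
  by_cases hdiv : u ∣ Nat.card M
  · exfalso
    exact core_u hq hcV hm h0 hu (M := M') hRinv hRle hv hv0 hQv
      (hdiv.trans (card_dvd_comap _ (QuotientGroup.mk'_surjective _) M))
  · refine der_of_prime hu.prime ?_ hdiv
    rw [← Nat.card_congr e.toEquiv]
    -- `u` divides the order
    have h1 := S0293.result (F := F) rfl m hm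
    have h2 : u ∣ Nat.gcd 4 (Fintype.card F ^ m - 1) * Nat.card (Cfsg.POmega F (Cfsg.quadFormPlus m F)) := by
      rw [h1]
      refine Dvd.dvd.mul_left ?_ _
      refine (hu.dvd (m := 2 * (m - 2 + 1)) ⟨1, by omega⟩).trans ?_
      exact Finset.dvd_prod_of_mem (fun i => Fintype.card F ^ (2 * (i + 1)) - 1)
        (Finset.mem_range.2 (show m - 2 < m - 1 by omega))
    refine (hu.prime.dvd_mul.1 h2).resolve_left fun h3 => ?_
    have h4 : u ∣ Fintype.card F ^ m - 1 := h3.trans (Nat.gcd_dvd_right _ _)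
    have := Nat.le_of_dvd (by omega) ((hu.dvd_iff m).1 h4)
    omega

end Cfsg.Agent.H983.ElPar
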