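import Cfsg.Agent.H983.ElPar.SylZ
import Cfsg.Agent.H983.ElPar.Nine
import Cfsg.Agent.H686.SqPlus
import Cfsg.Agent.LieClassical.OrthCenter
import Cfsg.Agent.S0752

/-!
# `Ω₈⁺(2)` (helper983)

The cubes `z` of the elements `y` of order 9 fix exactly three nonzero vectors, all of them nonsingular.
-/

set_option autoImplicit false
set_option linter.unusedSectionVars false

namespace Cfsg.Agent.H983.ElPar

open MulAction QuadraticMap Cfsg.Agent.H686.SqGen Cfsg.Agent.H686.SqSmall Cfsg.Agent.H686.SqPlus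
  Cfsg.Agent.LieClassical.OrthCore Cfsg.Agent.LieClassical.OrthTrans
open Cfsg.Agent.LieClassical Cfsg.Agent.LieClassical.OrthFinite Cfsg.Agent.LieClassical.OrthForms
open Cfsg.Agent.H396 (Der der_of_prime)

/-- `y ^ 9 = 1`, `y ^ 3` without fixed points on the invariant set `Y`: `9 ∣ |Y|` -/
theorem nine_dvd {G X : Type*} [Group G] [MulAction G X] {y : G} (hy : y ^ 9 = 1) (Y : Set X) [Finite Y]
    (hinv : ∀ x ∈ Y, y • x ∈ Y) (hfix : ∀ x ∈ Y, y ^ 3 • x ≠ x) : 9 ∣ Nat.card Y := by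
  classical
  have hfo : IsOfFinOrder y := isOfFinOrder_iff_pow_eq_one.2 ⟨9, by norm_num, hy⟩
  have hpow : ∀ n : ℕ, ∀ x ∈ Y, y ^ n • x ∈ Y := by
    intro n
    induction n with
    | zero => intro x hx; rwa [pow_zero, one_smul]
    | succ n ih => intro x hx; rw [pow_succ', mul_smul]; exact hinv _ (ih x hx)
  let : MulAction (Subgroup.zpowers y) Y := setAct (Subgroup.zpowers y) Y (by
    intro m hm x hx
    obtain ⟨n, rfl⟩ := hfo.mem_powers_iff_mem_zpowers.2 hm
    exact hpow n x hx)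
  refine dvd_card_of_orbits (M := Subgroup.zpowers y) fun x => ?_
  have hcy : Nat.card (Subgroup.zpowers y) ∣ 9 := by
    rw [Nat.card_zpowers]
    exact orderOf_dvd_of_pow_eq_one hy
  have : Finite (Subgroup.zpowers y) := Nat.finite_of_card_ne_zero fun h => by
    rw [h] at hcy
    norm_num at hcy
  set K := stabilizer (Subgroup.zpowers y) x with hK
  have h1 : K.index = Nat.card (orbit (Subgroup.zpowers y) x) := index_stabilizer _ x
  rw [← h1]
  have h2 : K.index ∣ 3 ^ 2 := K.index_dvd_card.trans (by simpa using hcy)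
  obtain ⟨j, hj, hj2⟩ := (Nat.dvd_prime_pow Nat.prime_three).1 h2
  by_cases hj3 : j = 2
  · rw [hj2, hj3]; norm_num
  exfalso
  have hn : K.Normal := by
    refine ⟨fun a ha g => ?_⟩
    have hc : g * a = a * g := by
      obtain ⟨_, i, rfl⟩ := g
      obtain ⟨_, k, rfl⟩ := a
      apply Subtype.ext
      show y ^ i * y ^ k = y ^ k * y ^ i
      rw [← zpow_add, ← zpow_add, add_comm]
    rw [hc, mul_inv_cancel_right]
    exact ha
  have h3 : (⟨y, Subgroup.mem_zpowers y⟩ : Subgroup.zpowers y) ^ K.index ∈ K := Subgroup.pow_index_mem K _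
  have h4 : (⟨y, Subgroup.mem_zpowers y⟩ : Subgroup.zpowers y) ^ 3 ∈ K := by
    have h5 : K.index ∣ 3 := by
      rw [hj2]
      calc 3 ^ j ∣ 3 ^ 1 := pow_dvd_pow 3 (by omega)
        _ = 3 := pow_one 3
    obtain ⟨c, hc⟩ := h5
    rw [hc, pow_mul]
    exact K.pow_mem h3 c
  rw [hK, mem_stabilizer_iff] at h4
  exact hfix x x.2 (congrArg Subtype.val h4)

section core

variable {F V : Type*} [Field F] [Finite F] [AddCommGroup V] [Module F V] [Finite V] {Q : QuadraticForm F V}

theorem cube_fix (hq : Nat.card F = 2) (hV : Nat.card V = 256) (h0 : Nat.card {v : V | Q v = 0} = 136)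
    {y : ↥(E Q)} (hy : orderOf y = 9) :
    Nat.card (cfix F (y ^ 3) : Submodule F V) = 4 ∧ ∀ v : V, y ^ 3 • v = v → Q v = 0 → v = 0 := by
  have hy9 : y ^ 9 = 1 := by rw [← hy]; exact pow_orderOf_eq_one y
  have hz1 : y ^ 3 ≠ 1 := by
    intro h
    have := orderOf_dvd_of_pow_eq_one h
    rw [hy] at this
    norm_num at this
  have hcomm : ∀ v : V, y ^ 3 • y • v = y • y ^ 3 • v := by
    intro v
    rw [smul_smul, smul_smul, ← pow_succ, ← pow_succ']
  set C : Submodule F V := cfix F (y ^ 3) with hC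
  have hmC : ∀ v : V, v ∈ C ↔ y ^ 3 • v = v := fun v => Iff.rfl
  obtain ⟨c, hc⟩ := exists_card hq C
  have hlt : Nat.card C < 256 := hV ▸ card_lt_of_ne_top (cfix_ne_top hz1)
  rw [hc] at hlt
  have hinv : ∀ v : V, v ∉ C → y • v ∉ C := by
    intro v hv h
    apply hv
    rw [hmC] at h ⊢
    rw [hcomm] at h
    exact smul_left_cancel y h
  have hc8 : c < 8 := (Nat.pow_lt_pow_iff_right (by norm_num : 1 < 2)).1 (by simpa using hlt)
  have h9 : 9 ∣ Nat.card ↥((C : Set V)ᶜ) := nine_dvd hy9 _ (fun v hv => hinv v hv) fun v hv h => hv h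
  rw [card_compl, hV, hc] at h9
  have hc2 : c = 2 := by
    interval_cases c <;> first | rfl | (exfalso; revert h9; decide)
  subst hc2
  refine ⟨hc, ?_⟩
  have h9' : 9 ∣ Nat.card ↥({v : V | Q v = 0} \ (C : Set V)) := by
    refine nine_dvd hy9 _ ?_ fun v hv h => hv.2 h
    rintro v ⟨hv1, hv2⟩
    exact ⟨(E_le_O y.2 v).trans hv1, hinv v hv2⟩
  have h10 : Nat.card ↥({v : V | Q v = 0} \ (C : Set V)) + Nat.card ↥({v : V | Q v = 0} ∩ (C : Set V)) = 136 := by
    rw [← h0, Nat.card_coe_set_eq, Nat.card_coe_set_eq, Nat.card_coe_set_eq]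
    rw [add_comm]
    exact Set.ncard_inter_add_ncard_sdiff_eq_ncard _ _
  have h11 : Nat.card ↥({v : V | Q v = 0} ∩ (C : Set V)) ≤ 4 := by
    have : Nat.card ↥({v : V | Q v = 0} ∩ (C : Set V)) ≤ Nat.card C := by
      rw [Nat.card_coe_set_eq]
      exact Set.ncard_le_ncard Set.inter_subset_right
    rw [hc] at this
    simpa using this
  have h12 : Nat.card ↥({v : V | Q v = 0} ∩ (C : Set V)) = 1 := by omega
  intro v hv hQv
  have h13 : Subsingleton ↥({v : V | Q v = 0} ∩ (C : Set V)) := (Nat.card_eq_one_iff_unique.1 h12).1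
  have := Subsingleton.elim (⟨v, hQv, hv⟩ : ↥({v : V | Q v = 0} ∩ (C : Set V)))
    ⟨0, QuadraticMap.map_zero Q, C.zero_mem⟩
  exact congrArg Subtype.val this

/-- an element of odd order of a symplectic group over a field with two elements has a fixed space of even
dimension -/
theorem even_cfix (hQ : Nondeg Q) (hq : Nat.card F = 2) [CharP F 2] {x : ↥(E Q)} {n : ℕ} (hx : x ^ n = 1)
    (hn : (n : F) ≠ 0) : ∃ k, Nat.card (cfix F x : Submodule F V) = 2 ^ (2 * k) := by
  have : Module.Finite F V := Module.Finite.of_finite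
  set C : Submodule F V := cfix F x with hC
  have h2 : (2 : F) = 0 := CharTwo.two_eq_zero
  have hA : LinearMap.BilinForm.IsAlt (LinearMap.BilinForm.restrict (polarBilin Q) C) := by
    intro v
    show polar Q (v : V) v = 0
    rw [polar_self', h2, zero_mul]
  obtain ⟨m, k, b, -, -, -, hk⟩ := Cfsg.Agent.S0752.result (LinearMap.BilinForm.restrict (polarBilin Q) C) hA
  have hk0 : k = 0 := by
    by_contra hne
    have h3 := b.ne_zero (Sum.inr (⟨0, by omega⟩ : Fin k))
    set r : C := b (Sum.inr (⟨0, by omega⟩ : Fin k)) with hr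
    obtain ⟨s, hs, hsr⟩ := exists_fix_ne (frm hQ) (x := x) hx hn (r := (r : V)) r.2
      (fun h => h3 (Subtype.ext h))
    apply hsr
    rw [polar_comm]
    exact hk _ ⟨s, hs⟩
  subst hk0
  refine ⟨m, ?_⟩
  rw [Module.natCard_eq_pow_finrank (K := F), hq, Module.finrank_eq_card_basis b]
  congr 1
  simp
  ring

theorem core_eight (hG : Good Q) (hq : Nat.card F = 2) [CharP F 2] (hV : Nat.card V = 256)
    (h0 : Nat.card {v : V | Q v = 0} = 136) {M : Subgroup ↥(E Q)} {R : Submodule F V}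
    (hinv : ∀ g ∈ M, ∀ v ∈ R, g • v ∈ R) (hiso : ∀ v ∈ R, ∀ w ∈ R, polar Q v w = 0)
    {e : V} (he : e ∈ R) (he0 : e ≠ 0) (hQe : Q e = 0) (h7 : 7 ∣ Nat.card M) {y : ↥(E Q)} (hy : orderOf y = 9)
    (hz : y ^ 3 ∈ M) : False := by
  have : Fact (Nat.Prime 3) := ⟨Nat.prime_three⟩
  have : Fact (Nat.Prime 7) := ⟨by norm_num⟩
  have h2F : (2 : F) = 0 := CharTwo.two_eq_zero
  obtain ⟨hC4, hCs⟩ := cube_fix hq hV h0 hy
  set z := y ^ 3 with hzdef
  have hz3 : z ^ 3 = 1 := by
    have hy9 : y ^ 9 = 1 := by rw [← hy]; exact pow_orderOf_eq_one y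
    rw [hzdef, ← pow_mul]
    exact hy9
  have hzo : orderOf z = 3 := by
    rw [hzdef, orderOf_pow' y (by norm_num), hy]
    decide
  let R0 : Submodule F V :=
    { carrier := {v | v ∈ R ∧ Q v = 0}
      add_mem' := fun {a b} ha hb => ⟨R.add_mem ha.1 hb.1, by rw [Q_add, ha.2, hb.2, hiso a ha.1 b hb.1]; ring⟩
      zero_mem' := ⟨R.zero_mem, QuadraticMap.map_zero Q⟩
      smul_mem' := fun c v hv => ⟨R.smul_mem c hv.1, by rw [QuadraticMap.map_smul, hv.2, smul_zero]⟩ }
  have hR0inv : ∀ g ∈ M, ∀ v ∈ R0, g • v ∈ R0 := fun g hg v hv => ⟨hinv g hg v hv.1, (E_le_O g.2 v).trans hv.2⟩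
  have hR0iso : ∀ v ∈ R0, ∀ w ∈ R0, polar Q v w = 0 := fun v hv w hw => hiso v hv.1 w hw.1
  obtain ⟨k, hk⟩ := exists_card hq R0
  have hR0 : 1 < Nat.card R0 := one_lt_card_of_ne_bot ((Submodule.ne_bot_iff _).2 ⟨e, ⟨he, hQe⟩, he0⟩)
  have hle := card_isotropic_le (frm hG.nondeg) hR0iso
  have hk4 : k ≤ 4 := by
    rw [hk, hV, ← pow_mul, show 256 = 2 ^ 8 by norm_num] at hle
    have := (Nat.pow_le_pow_iff_right (by norm_num : 1 < 2)).1 hle
    omega
  have hk0 : 1 ≤ k := Nat.one_le_iff_ne_zero.2 (by rintro rfl; rw [hk] at hR0; norm_num at hR0)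
  -- `z` has no fixed vectors in `R0`
  have h3 : 3 ∣ Nat.card ↥((R0 : Set V) \ {0}) := by
    have h1 := card_modEq_of_order hzo ((R0 : Set V) \ {0}) (by
      rintro v ⟨hv1, hv2⟩
      exact ⟨hR0inv z hz v hv1, fun h => hv2 ((smul_eq_zero_iff_eq z).1 h)⟩)
    have h4 : {v : V | v ∈ (R0 : Set V) \ {0} ∧ z • v = v} = ∅ := by
      ext v
      simp only [Set.mem_ofPred_eq, Set.mem_empty_iff_false, iff_false]
      rintro ⟨⟨hv1, hv2⟩, hv3⟩
      exact hv2 (hCs v hv3 hv1.2)
    rw [h4, show Nat.card ↥(∅ : Set V) = 0 by simp] at h1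
    exact (Nat.modEq_zero_iff_dvd).1 h1
  rw [card_diff_zero, hk] at h3
  have hk24 : k = 2 ∨ k = 4 := by
    interval_cases k <;> first | exact Or.inl rfl | exact Or.inr rfl | (exfalso; revert h3; decide)
  rcases hk24 with rfl | rfl
  · -- an element of order 7
    obtain ⟨x, hx⟩ := exists_prime_orderOf_dvd_card' (G := M) 7 h7
    have hx' : orderOf (x : ↥(E Q)) = 7 := by rw [Subgroup.orderOf_coe]; exact hx
    have hx1 : (x : ↥(E Q)) ≠ 1 := by
      intro h
      rw [h, orderOf_one] at hx'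
      norm_num at hx'
    have h7F : ((7 : ℕ) : F) ≠ 0 := by
      intro h
      rw [CharP.cast_eq_zero_iff F 2] at h
      norm_num at h
    have hx7 : (x : ↥(E Q)) ^ 7 = 1 := by rw [← hx']; exact pow_orderOf_eq_one _
    obtain ⟨c, hc⟩ := even_cfix hG.nondeg hq hx7 h7F
    have hcle : Nat.card (cfix F (x : ↥(E Q)) : Submodule F V) < 256 := hV ▸ card_lt_of_ne_top (cfix_ne_top hx1)
    have hctop : Nat.card (⊤ : Submodule F V) = 256 := by
      rw [← hV]; exact Nat.card_congr (Equiv.Set.univ _)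
    have hc2 := card_cfix_modEq (F := F) hx' (⊤ : Submodule F V) (fun _ _ => trivial)
    rw [top_inf_eq, hctop, hc] at hc2
    rw [hc] at hcle
    have hc4 : 2 * c < 8 := (Nat.pow_lt_pow_iff_right (by norm_num : 1 < 2)).1 (by simpa using hcle)
    have hc5 : c < 4 := by omega
    have hc1 : c = 1 := by
      interval_cases c <;> first | rfl | (exfalso; revert hc2; decide)
    subst hc1
    -- `x` is trivial on `R0`
    obtain ⟨j, hj⟩ := exists_card hq (R0 ⊓ cfix F (x : ↥(E Q)) : Submodule F V)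
    have hc3 := card_cfix_modEq hx' R0 (hR0inv x x.2)
    rw [hk, hj] at hc3
    have hjle : Nat.card (R0 ⊓ cfix F (x : ↥(E Q)) : Submodule F V) ≤ Nat.card R0 :=
      Nat.card_le_card_of_injective (Submodule.inclusion inf_le_left) (Submodule.inclusion_injective _)
    rw [hj, hk] at hjle
    have hj2 : j ≤ 2 := (Nat.pow_le_pow_iff_right (by norm_num : 1 < 2)).1 hjle
    have hj3 : j = 2 := by
      interval_cases j <;> first | rfl | (exfalso; revert hc3; decide)
    subst hj3
    have hCR : cfix F (x : ↥(E Q)) ≤ R0 := by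
      intro v hv
      have h1 : Function.Bijective (Submodule.inclusion (inf_le_right : R0 ⊓ cfix F (x : ↥(E Q)) ≤ cfix F (x : ↥(E Q)))) :=
        (Nat.bijective_iff_injective_and_card _).2 ⟨Submodule.inclusion_injective _, by rw [hj, hc]⟩
      obtain ⟨w, hw⟩ := h1.2 ⟨v, hv⟩
      have : (w : V) = v := congrArg Subtype.val hw
      rw [← this]
      exact w.2.1
    have hcb : cfix F (x : ↥(E Q)) ≠ (⊥ : Submodule F V) := by
      intro h
      rw [h] at hc
      simp at hc
    obtain ⟨r, hr, hr0⟩ := (Submodule.ne_bot_iff _).1 hcb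
    obtain ⟨s, hs, hsr⟩ := exists_fix_ne (frm hG.nondeg) (x := (x : ↥(E Q))) hx7 h7F hr hr0
    exact hsr (hR0iso s (hCR hs) r (hCR hr))
  · -- a fixed vector of `z` is orthogonal to `R0`
    obtain ⟨w, hw, hw0⟩ := (Submodule.ne_bot_iff _).1 (fun h : (cfix F z : Submodule F V) = ⊥ => by
      rw [h] at hC4
      simp at hC4)
    have hwz : z • w = w := hw
    have hwR : w ∉ R0 := fun h => hw0 (hCs w hwz h.2)
    have hBw : ∀ r ∈ R0, polar Q w r = 0 := by
      intro r hr
      have h1 : r + z • r + z • z • r = 0 := by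
        refine hCs _ ?_ ?_
        · rw [smul_add, smul_add, smul_smul z z (z • r), smul_smul (z * z) z r, ← pow_two, ← pow_succ, hz3, one_smul]
          abel
        · exact (R0.add_mem (R0.add_mem hr (hR0inv z hz r hr)) (hR0inv z hz _ (hR0inv z hz r hr))).2
      have h4 : ∀ v : V, polar Q w (z • v) = polar Q w v := by
        intro v
        conv_lhs => rw [← hwz]
        exact polar_map (E_le_O z.2) w v
      have h5 : polar Q w (r + z • r + z • z • r) = 3 * polar Q w r := by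
        rw [polar_add_right, polar_add_right, h4, h4, h4]; ring
      rw [h1, polar_zero_right] at h5
      have h6 : (3 : F) = 1 := by linear_combination h2F
      rw [h6, one_mul] at h5
      exact h5.symm
    let R1 : Submodule F V := R0 ⊔ Submodule.span F {w}
    have hR1 : ∀ u ∈ R1, ∀ v ∈ R1, polar Q u v = 0 := by
      intro u hu v hv
      obtain ⟨a, ha, b, hb, rfl⟩ := Submodule.mem_sup.1 hu
      obtain ⟨c, hc, d, hd, rfl⟩ := Submodule.mem_sup.1 hv
      obtain ⟨s, rfl⟩ := Submodule.mem_span_singleton.1 hb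
      obtain ⟨t, rfl⟩ := Submodule.mem_span_singleton.1 hd
      rw [polar_add_left, polar_add_right, polar_add_right, polar_smul_right, polar_smul_left, polar_smul_left,
        polar_smul_right, hR0iso a ha c hc, polar_comm Q a w, hBw a ha, hBw c hc, polar_self', h2F]
      simp
    have h1 := card_isotropic_le (frm hG.nondeg) hR1
    have h4 : R0 < R1 := lt_of_le_of_ne le_sup_left fun h => hwR (by
      rw [h]; exact Submodule.mem_sup_right (Submodule.mem_span_singleton_self w))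
    have h5 : Nat.card R0 < Nat.card R1 := by
      have := Set.ncard_lt_ncard (SetLike.coe_ssubset_coe.2 h4) (Set.toFinite _)
      exact this
    rw [hV] at h1
    rw [hk] at h5
    have h6 : 17 ≤ Nat.card R1 := by
      have : (2 : ℕ) ^ 4 = 16 := by norm_num
      omega
    have h7 := Nat.pow_le_pow_left h6 2
    omega

end core

variable {F : Type} [Field F] [Fintype F]

theorem np_po8 (hF : Fintype.card F = 2) [IsSimpleGroup (Cfsg.POmega F (Cfsg.quadFormPlus 4 F))]
    (hcm : ∃ a b : Cfsg.POmega F (Cfsg.quadFormPlus 4 F), a * b ≠ b * a) :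
    NP 2 (Cfsg.POmega F (Cfsg.quadFormPlus 4 F)) := by
  classical
  have : Fact (Nat.Prime 2) := ⟨Nat.prime_two⟩
  have hch : CharP F 2 := charP_of_card_eq_prime hF
  have hq : Nat.card F = 2 := by rw [Nat.card_eq_fintype_card, hF]
  have hfin : Finite (Cfsg.POmega F (Cfsg.quadFormPlus 4 F)) := Quotient.finite _
  refine np_of_loc (KFacts.RgdLieCharP.hasFilt_of_lie (Or.inr (Or.inr (Or.inr (Or.inr (Or.inl
    ⟨F, inferInstance, inferInstance, inferInstance, 4, le_refl 4, ⟨MulEquiv.refl _⟩⟩)))))) hcm ?_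
  -- the model
  have hG : Good (plusForm 4 F) := by
    apply good_of_finite (nondeg_plusForm 4 F)
    rw [Module.finrank_fintype_fun_eq_card, Fintype.card_sum, Fintype.card_fin]
    omega
  have hcV : Nat.card (Fin 4 ⊕ Fin 4 → F) = 256 := by
    rw [Nat.card_eq_fintype_card, Fintype.card_fun, Fintype.card_sum, Fintype.card_fin, hF]
    norm_num
  have h0 : Nat.card {v : Fin 4 ⊕ Fin 4 → F | plusForm 4 F v = 0} = 136 := by
    have h1 : {v : Fin 4 ⊕ Fin 4 → F | plusForm 4 F v = 0} = {v | Cfsg.quadFormPlus 4 F v = 0} := by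
      rw [coe_plusForm]
    rw [h1]
    exact S0289.result (F := F) hF 4 (by omega)
  have hcen : Subgroup.center (Cfsg.Omega F ⇑(plusForm 4 F)) = ⊥ := by
    refine OrthCenter.center_omega_eq_bot_char_two CharTwo.two_eq_zero ⟨fun x hx => ?_, fun x hx => ?_⟩ ?_ hG.sing
    · exact nondeg_plusForm 4 F x hx
    · exact nondeg_plusForm 4 F x fun y => by rw [polar_comm]; exact hx y
    · rw [Fintype.card_sum, Fintype.card_fin]; omega
  let e : Cfsg.POmega F (Cfsg.quadFormPlus 4 F) ≃* ↥(E (plusForm 4 F)) := by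
    rw [← coe_plusForm]
    exact (QuotientGroup.quotientMulEquivOfEq hcen).trans (QuotientGroup.quotientBot.trans
      ((omegaEquiv (plusForm 4 F)).trans (MulEquiv.subgroupCongr hG.commutator_eq_E)))
  suffices hmain : ∀ M : Subgroup ↥(E (plusForm 4 F)), Loc 2 M → Der _ M by
    intro M hM
    exact Cfsg.Agent.H396.Der.congr e.symm (hmain _ (hM.comap e.symm))
  have : IsSimpleGroup ↥(E (plusForm 4 F)) := e.symm.isSimpleGroup
  obtain ⟨y, hy⟩ := Nine.exists_nine hF hG
  have hy3 : orderOf (y ^ 3) = 3 := by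
    rw [orderOf_pow' y (by norm_num), hy]
    decide
  intro M hM
  refine der_of_z_loc (z := y ^ 3) (S := {x | ∃ y, orderOf y = 9 ∧ x = y ^ 3}) (by rw [hy3]; exact Nat.prime_three)
    ⟨y, hy, rfl⟩ ?_ ?_ hM
  · rintro φ _ ⟨w, hw, rfl⟩
    exact ⟨φ w, by rw [φ.orderOf_eq]; exact hw, map_pow φ w 3⟩
  · rintro M hM hall _ ⟨w, hw, rfl⟩ hwM
    obtain ⟨P, hP, hPp, hMP⟩ := hM.exV
    obtain ⟨R, hR0, hRinv, hRiso, hRle⟩ := exists_isotropic (p := 2) (frm hG.nondeg) hP hPp hMP
    obtain ⟨v, hv, hv0, hQv⟩ := exists_sing hG (p := 2) (fun c hc => card_norm 4 (by omega) c hc)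
      (M := M) hM.idx hR0 hRinv
    have h7 : 7 ∣ Nat.card M := by
      refine hall 7 (by norm_num) ?_
      rw [← Nat.card_congr e.toEquiv]
      have h1 := S0293.result (F := F) hF 4 (le_refl 4)
      rw [show Nat.gcd 4 (2 ^ 4 - 1) = 1 by decide, one_mul] at h1
      rw [h1]
      decide
    exact core_eight hG hq hcV h0 hRinv hRiso hv hv0 hQv h7 hw hwM

end Cfsg.Agent.H983.ElPar
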