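import Cfsg.Agent.H983.ElPar.SylZ
import Cfsg.Agent.H686.SqSmall

/-!
# `PSL6(2)`, `PSU4(2)`, `PSp6(2)` (helper983)
-/

set_option autoImplicit false
set_option linter.unusedSectionVars false

namespace Cfsg.Agent.H983.ElPar

open MulAction Matrix
open Cfsg.Agent.H396 (Der der_of_prime)
open Cfsg.Agent.H686.SqGen (fix fix_smul_mem fix_ne_top exists_fixed card_modEq_of_order)
open Cfsg.Agent.H686.SqSmall

/-- groups of order `2 ^ a * 3 ^ b * R`, `R` square-free prime to 6 -/
theorem dq_of_card {T : Type*} [Group T] [Finite T] [IsSimpleGroup T] {a b R : ℕ} (hR : Squarefree R)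
    (h2 : ¬ 2 ∣ R) (h3 : ¬ 3 ∣ R) (hcard : Nat.card T = 2 ^ a * 3 ^ b * R) : DQ 2 T := by
  intro M hM hidx
  by_cases hall : ∀ v : ℕ, v.Prime → v ∣ R → v ∣ Nat.card M
  swap
  · push Not at hall
    obtain ⟨v, hv, h1, h2⟩ := hall
    exact der_of_prime hv (hcard ▸ h1.mul_left _) h2
  have hmul := M.card_mul_index
  rw [hcard] at hmul
  have hc1 : Nat.Coprime M.index (2 ^ a) :=
    Nat.Coprime.pow_right a ((Nat.Prime.coprime_iff_not_dvd Nat.prime_two).2 hidx).symm
  have hc2 : Nat.Coprime M.index R := by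
    rw [Nat.coprime_iff_gcd_eq_one]
    by_contra hne
    obtain ⟨v, hv, hvd⟩ := Nat.exists_prime_and_dvd hne
    have hvi := hvd.trans (Nat.gcd_dvd_left _ _)
    have hvR := hvd.trans (Nat.gcd_dvd_right _ _)
    have h4 : v * v ∣ 2 ^ a * 3 ^ b * R := by
      rw [← hmul]
      exact mul_dvd_mul (hall v hv hvR) hvi
    have hv2 : Nat.Coprime (v * v) (2 ^ a) := by
      refine Nat.Coprime.pow_right a ?_
      have : Nat.Coprime v 2 := by
        rw [Nat.coprime_primes hv Nat.prime_two]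
        rintro rfl
        exact h2 hvR
      exact Nat.Coprime.mul_left this this
    have hv3 : Nat.Coprime (v * v) (3 ^ b) := by
      refine Nat.Coprime.pow_right b ?_
      have : Nat.Coprime v 3 := by
        rw [Nat.coprime_primes hv Nat.prime_three]
        rintro rfl
        exact h3 hvR
      exact Nat.Coprime.mul_left this this
    have h5 := (Nat.Coprime.mul_right hv2 hv3).dvd_of_dvd_mul_left h4
    exact hv.one_lt.ne' (Nat.isUnit_iff.1 (hR v h5))
  have h6 : M.index ∣ 3 ^ b := by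
    have h7 : M.index ∣ 2 ^ a * 3 ^ b * R := ⟨Nat.card M, by rw [← hmul, mul_comm]⟩
    exact hc1.dvd_of_dvd_mul_left (hc2.dvd_of_dvd_mul_right h7)
  obtain ⟨k, -, hk⟩ := (Nat.dvd_prime_pow Nat.prime_three).1 h6
  exact der_of_index_pow hM Nat.prime_three hk

theorem squarefree_five : Squarefree 5 := (Nat.prime_five).squarefree

theorem squarefree_35 : Squarefree 35 := by
  rw [show 35 = 5 * 7 by norm_num, Nat.squarefree_mul (by norm_num)]
  exact ⟨Nat.prime_five.squarefree, (by norm_num : Nat.Prime 7).squarefree⟩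

variable {F : Type} [Field F] [Fintype F]

theorem dq_psu42 (hF : Fintype.card F = 2 ^ 2) [IsSimpleGroup (PSU 4 F 2)] : DQ 2 (PSU 4 F 2) := by
  refine dq_of_card (a := 6) (b := 4) squarefree_five (by norm_num) (by norm_num) ?_
  have h := S0280.result hF 4 (by omega)
  rw [← mul_assoc, show Nat.gcd 4 (2 + 1) * (2 + 1) = 3 by decide] at h
  have h2 : (2 ^ (4 * (4 - 1) / 2) * ∏ i ∈ Finset.range 4,
      if Even i then 2 ^ (i + 1) + 1 else 2 ^ (i + 1) - 1) = 3 * 25920 := by decide
  rw [h2] at h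
  exact Nat.eq_of_mul_eq_mul_left (by norm_num) h

theorem dq_psp62 (hF : Fintype.card F = 2) [IsSimpleGroup (PSp 3 F)] : DQ 2 (PSp 3 F) := by
  refine dq_of_card (a := 9) (b := 4) squarefree_35 (by norm_num) (by norm_num) ?_
  have h1 := Cfsg.Agent.H343.ord_psp (F := F) (m := 3) hF (by norm_num)
  rw [show Cfsg.Agent.OrdDiv.fPSp.den 3 2 = 1 by decide,
    show Cfsg.Agent.OrdDiv.fPSp.num 3 2 = 1451520 by decide +kernel, one_mul] at h1
  rw [h1]; norm_num

/-! ### `PSL6(2)` -/

theorem np_sl62 (hF : Fintype.card F = 2) : NP 2 (SpecialLinearGroup (Fin 6) F) := by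
  classical
  have hF' : Nat.card F = 2 := by rw [Nat.card_eq_fintype_card, hF]
  have : Fact (Nat.Prime 2) := ⟨Nat.prime_two⟩
  have : Fact (Nat.Prime 3) := ⟨Nat.prime_three⟩
  have : Fact (Nat.Prime 31) := ⟨by norm_num⟩
  have hch : CharP F 2 := charP_of_card_eq_prime hF
  set G := SpecialLinearGroup (Fin 6) F with hG
  have hcard : Nat.card G = 20158709760 := by
    have h1 := S0242.result (F := F) hF 6 (by norm_num)
    rwa [show ∏ i : Fin 6, (2 ^ 6 - 2 ^ (i : ℕ)) = 20158709760 by decide, show 2 - 1 = 1 from rfl, one_mul] at h1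
  let act : DistribMulAction G (Fin 6 → F) := matAct (slToMat 6 F)
  have hcomm : SMulCommClass G F (Fin 6 → F) := ⟨fun g c v => mulVec_smul _ _ _⟩
  have hfaith : FaithfulSMul G (Fin 6 → F) := ⟨fun {a b} h => Subtype.ext (Matrix.mulVec_injective (funext h))⟩
  have hcV : Nat.card (Fin 6 → F) = 64 := by
    rw [Nat.card_eq_fintype_card, Fintype.card_fun, hF, Fintype.card_fin]; norm_num
  have horb : ∀ v : Fin 6 → F, v ≠ 0 → Nat.card (orbit G v) = 63 := by
    intro v hv
    have h1 : orbit G v = {0}ᶜ := by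
      ext w
      refine ⟨fun ⟨g, hg⟩ => ?_, fun hw => ?_⟩
      · intro hw
        rw [Set.mem_singleton_iff] at hw
        rw [hw] at hg
        exact hv ((smul_eq_zero_iff_eq g).1 hg)
      · obtain ⟨g, hg⟩ := H119.SLVec.exists_map_one (n := 6) (by norm_num) hv hw
        exact ⟨g, hg⟩
    rw [h1, Nat.card_coe_set_eq, Set.ncard_compl, Set.ncard_singleton, hcV]
  obtain ⟨P, z, -, hP, hz, -, hc⟩ := exists_central (T := G) (r := 3) (by rw [hcard]; norm_num)
  have hz1 : z ≠ 1 := by
    rintro rfl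
    rw [orderOf_one] at hz
    norm_num at hz
  -- `z` has no fixed vectors
  have hzfix : ∀ v : Fin 6 → F, z • v = v → v = 0 := by
    have h9 : 3 ^ 2 ∣ Nat.card ↥(((cfix F z : Submodule F (Fin 6 → F)) : Set (Fin 6 → F)) \ {0}) := by
      refine dvd_card_of_sylow (G := G) Nat.prime_three hP _ ?_ ?_
      · rintro m hm v ⟨hv1, hv2⟩
        refine ⟨?_, fun h => hv2 ((smul_eq_zero_iff_eq m).1 h)⟩
        show z • m • v = m • v
        rw [smul_smul, ← hc m hm, ← smul_smul, show z • v = v from hv1]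
      · rintro v ⟨-, hv2⟩
        rw [horb v hv2]
        norm_num
    obtain ⟨c, hcc⟩ := exists_card hF' (cfix F z : Submodule F (Fin 6 → F))
    rw [card_diff_zero, hcc] at h9
    have hlt : Nat.card (cfix F z : Submodule F (Fin 6 → F)) < 64 := hcV ▸ card_lt_of_ne_top (cfix_ne_top hz1)
    rw [hcc] at hlt
    have hc6 : c < 6 := (Nat.pow_lt_pow_iff_right (by norm_num : 1 < 2)).1 (by simpa using hlt)
    have hc0 : c = 0 := by
      interval_cases c <;> first | rfl | (exfalso; revert h9; decide)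
    subst hc0
    intro v hv
    by_contra hv0
    have : (cfix F z : Submodule F (Fin 6 → F)) = ⊥ := by
      by_contra hne
      have := one_lt_card_of_ne_bot hne
      rw [hcc] at this
      norm_num at this
    have hv' : v ∈ (cfix F z : Submodule F (Fin 6 → F)) := hv
    rw [this, Submodule.mem_bot] at hv'
    exact hv0 hv'
  refine np_of_z (z := z) (by rw [hz]; exact Nat.prime_three) fun Q hQp hQ hall hzQ => ?_
  have h31 := hall 31 (by norm_num) (by rw [hcard]; norm_num)
  set M' := Subgroup.normalizer (Q : Set G) with hM'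
  set W : Submodule F (Fin 6 → F) := fix F Q with hW
  have hWinv : ∀ m ∈ M', ∀ v ∈ W, m • v ∈ W := fun m hm v hv => fix_smul_mem hm hv
  have hW0 : W ≠ ⊥ := by
    obtain ⟨w, -, hw0, hw⟩ := exists_fixed (F := F) (V := Fin 6 → F) hQp (W := ⊤) top_ne_bot (fun _ _ _ _ => trivial)
    exact (Submodule.ne_bot_iff _).2 ⟨w, hw, hw0⟩
  have hW1 : Nat.card W < 64 := hcV ▸ card_lt_of_ne_top (fix_ne_top hQ)
  obtain ⟨k, hk⟩ := exists_card hF' W
  have hW2 : 1 < Nat.card W := one_lt_card_of_ne_bot hW0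
  -- an element of order 31
  obtain ⟨x, hx⟩ := exists_prime_orderOf_dvd_card' (G := M') 31 h31
  have hx' : orderOf (x : G) = 31 := by rw [Subgroup.orderOf_coe]; exact hx
  have hx1 : (x : G) ≠ 1 := by
    intro h
    rw [h, orderOf_one] at hx'
    norm_num at hx'
  have hc1 := card_cfix_modEq hx' W (hWinv x x.2)
  have hc2 := card_cfix_modEq (F := F) hx' (⊤ : Submodule F (Fin 6 → F)) (fun _ _ => trivial)
  rw [top_inf_eq] at hc2
  obtain ⟨c, hc⟩ := exists_card hF' (cfix F (x : G) : Submodule F (Fin 6 → F))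
  obtain ⟨j, hj⟩ := exists_card hF' (W ⊓ cfix F (x : G) : Submodule F (Fin 6 → F))
  have hcle : Nat.card (cfix F (x : G) : Submodule F (Fin 6 → F)) < 64 := hcV ▸ card_lt_of_ne_top (cfix_ne_top hx1)
  have hjle : Nat.card (W ⊓ cfix F (x : G) : Submodule F (Fin 6 → F)) ≤
      Nat.card (cfix F (x : G) : Submodule F (Fin 6 → F)) :=
    Nat.card_le_card_of_injective (Submodule.inclusion inf_le_right) (Submodule.inclusion_injective _)
  have hctop : Nat.card (⊤ : Submodule F (Fin 6 → F)) = 64 := by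
    rw [← hcV]; exact Nat.card_congr (Equiv.Set.univ _)
  rw [hctop, hc] at hc2
  rw [hk, hj] at hc1
  rw [hc] at hcle
  rw [hj, hc] at hjle
  rw [hk] at hW1 hW2
  have hc6 : c < 6 := (Nat.pow_lt_pow_iff_right (by norm_num : 1 < 2)).1 (by simpa using hcle)
  have hk6 : k < 6 := (Nat.pow_lt_pow_iff_right (by norm_num : 1 < 2)).1 (by simpa using hW1)
  have hjc : j ≤ c := (Nat.pow_le_pow_iff_right (by norm_num : 1 < 2)).1 hjle
  have hk0 : 1 ≤ k := Nat.one_le_iff_ne_zero.2 (by rintro rfl; norm_num at hW2)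
  have hc1' : c = 1 := by
    interval_cases c <;> first | rfl | (exfalso; revert hc2; decide)
  subst hc1'
  have hk5 : k = 1 ∨ k = 5 := by
    interval_cases j <;> interval_cases k <;> first | exact Or.inl rfl | exact Or.inr rfl | (exfalso; revert hc1; decide)
  -- a fixed vector of `z`
  have hno : ∀ Y : Set (Fin 6 → F), (∀ y ∈ Y, z • y ∈ Y) → (0 : Fin 6 → F) ∉ Y → 3 ∣ Nat.card Y := by
    intro Y hY h0
    have h1 := card_modEq_of_order hz Y hY
    have h2 : {y : Fin 6 → F | y ∈ Y ∧ z • y = y} = ∅ := by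
      ext y
      simp only [Set.mem_ofPred_eq, Set.mem_empty_iff_false, iff_false]
      rintro ⟨hy, hzy⟩
      rw [hzfix y hzy] at hy
      exact h0 hy
    rw [h2, show Nat.card ↥(∅ : Set (Fin 6 → F)) = 0 by simp] at h1
    exact (Nat.modEq_zero_iff_dvd).1 h1
  rcases hk5 with rfl | rfl
  · have h3 := hno ((W : Set (Fin 6 → F)) \ {0}) (fun v ⟨hv1, hv2⟩ =>
      ⟨hWinv z hzQ v hv1, fun h => hv2 ((smul_eq_zero_iff_eq z).1 h)⟩) (fun h => h.2 rfl)
    rw [card_diff_zero, hk] at h3
    norm_num at h3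
  · have h3 := hno ((W : Set (Fin 6 → F))ᶜ) (fun v hv hv2 => by
      have := hWinv z⁻¹ (inv_mem hzQ) _ hv2
      rw [inv_smul_smul] at this
      exact hv this) (fun h => h W.zero_mem)
    rw [card_compl, hcV, hk] at h3
    norm_num at h3

theorem np_psl62 (hF : Fintype.card F = 2) : NP 2 (Matrix.ProjectiveSpecialLinearGroup (Fin 6) F) := by
  have hc : Subgroup.center (SpecialLinearGroup (Fin 6) F) = ⊥ := by
    rw [eq_bot_iff]
    intro A hA
    obtain ⟨r, hr, hA⟩ := Matrix.SpecialLinearGroup.mem_center_iff.1 hA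
    have hr0 : r ≠ 0 := by
      rintro rfl
      rw [zero_pow (by simp)] at hr
      exact zero_ne_one hr
    have hr1 : r = 1 := by
      have h1 := FiniteField.pow_card_sub_one_eq_one r hr0
      rwa [hF, show 2 - 1 = 1 from rfl, pow_one] at h1
    rw [Subgroup.mem_bot]
    apply Subtype.ext
    rw [← hA, hr1, map_one]
    rfl
  exact (np_sl62 hF).congr ((QuotientGroup.quotientBot (G := SpecialLinearGroup (Fin 6) F)).symm.trans
    (QuotientGroup.quotientMulEquivOfEq hc.symm))

end Cfsg.Agent.H983.ElPar
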