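import Cfsg.Agent.H983.ElPar.Base
import Cfsg.Agent.H187.TwF4SQ
import Cfsg.Agent.EvenType.ChevTwoF4

/-!
# `²F₄(q)`, `q ≥ 8` (helper983)
-/

set_option autoImplicit false
set_option linter.unusedSectionVars false

namespace Cfsg.Agent.H983.ElPar

open Cfsg.Agent.H396 (Der der_of_prime)

section Prime

open Cfsg Cfsg.Lie Cfsg.Agent.Nodes.Reps Cfsg.Agent.H187 Cfsg.Agent.H187.TwF4Par

/-- `H187.exists_prime_2F4` with the data of the prime -/
theorem exists_prime_2F4 {T : Type*} [Group T] [Finite T] (h : Cfsg.Lie.Iso2F4 T) : ∃ u e N : ℕ, H436.Prim 2 e u ∧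
    u ∣ Nat.card T ∧ Nat.card T = 2 ^ e * N ∧ ¬ 2 ∣ N ∧
      ∀ M : Subgroup T, M ≠ ⊤ → ¬ 2 ^ 2 ∣ M.index → ¬ u ∣ Nat.card M := by
  obtain ⟨F, i1, i2, m, φ, S, hm, hK, ⟨e⟩, hR, hfin, hF⟩ := Cfsg.Agent.H187.exists_full h
  obtain ⟨u, hu⟩ := H436.exists_prim (q := 2) (e := 12 * (2 * m + 1)) le_rfl (by omega) (by omega)
  have hc := S1068.result hK
  have hcT : Nat.card T = Nat.card ↥(twistedF4 F (2 ^ m)) := Nat.card_congr e.toEquiv
  set G := ↥(twistedF4 F (2 ^ m)) with hG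
  have hu6 : u ∣ (2 ^ (2 * m + 1)) ^ 6 + 1 := by
    have := hu.dvd_add (m := (2 * m + 1) * 6) ⟨1, by ring⟩ (fun h1 => by
      have := Nat.le_of_dvd (by omega) h1
      omega)
    rwa [pow_mul] at this
  have hc' : Nat.card G = 2 ^ (12 * (2 * m + 1)) * ((2 ^ (2 * m + 1) - 1) * ((2 ^ (2 * m + 1)) ^ 3 + 1) *
      ((2 ^ (2 * m + 1)) ^ 4 - 1) * ((2 ^ (2 * m + 1)) ^ 6 + 1)) := by
    rw [hc, ← pow_mul, mul_comm 12]
    ring
  have hodd : ¬ 2 ∣ ((2 ^ (2 * m + 1) - 1) * ((2 ^ (2 * m + 1)) ^ 3 + 1) *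
      ((2 ^ (2 * m + 1)) ^ 4 - 1) * ((2 ^ (2 * m + 1)) ^ 6 + 1)) := by
    have hq : 2 ∣ 2 ^ (2 * m + 1) := dvd_pow_self 2 (by omega)
    have hq1 : 1 ≤ 2 ^ (2 * m + 1) := Nat.one_le_two_pow
    have a3 : 2 ∣ (2 ^ (2 * m + 1)) ^ 3 := dvd_pow hq (by norm_num)
    have a4 : 2 ∣ (2 ^ (2 * m + 1)) ^ 4 := dvd_pow hq (by norm_num)
    have a6 : 2 ∣ (2 ^ (2 * m + 1)) ^ 6 := dvd_pow hq (by norm_num)
    have b4 : 1 ≤ (2 ^ (2 * m + 1)) ^ 4 := Nat.one_le_pow _ _ (by omega)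
    rw [Nat.prime_two.dvd_mul, Nat.prime_two.dvd_mul, Nat.prime_two.dvd_mul]
    omega
  refine ⟨u, _, _, hu, ?_, hcT.trans hc', hodd, ?_⟩
  · rw [hcT, hc]
    exact Dvd.dvd.mul_left hu6 _
  · intro M hM hidx hdvd
    have hMm : M.map e.toMonoidHom ≠ ⊤ := fun h1 => by
      have h2 : (M.map e.toMonoidHom).index = 1 := by rw [h1, Subgroup.index_top]
      rw [show (M.map e.toMonoidHom).index = M.index from Subgroup.index_map_equiv M e, Subgroup.index_eq_one] at h2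
      exact hM h2
    have hMi : ¬ 2 ^ 2 ∣ (M.map e.toMonoidHom).index := by
      rwa [show (M.map e.toMonoidHom).index = M.index from Subgroup.index_map_equiv M e]
    obtain ⟨g, hg⟩ := TwF4Par.exists_conj_le_norm (S := S) hF hR hMm hMi
    have hcard : Nat.card ↥(cj g (M.map e.toMonoidHom)) = Nat.card M := by
      have h1 : Nat.card ↥(cj g (M.map e.toMonoidHom)) = Nat.card ↥(M.map e.toMonoidHom) :=
        Nat.card_congr ((M.map e.toMonoidHom).equivMapOfInjective (MulAut.conj g).toMonoidHom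
          (MulAut.conj g).injective).toEquiv.symm
      rw [h1]
      exact Nat.card_congr (M.equivMapOfInjective e.toMonoidHom e.injective).toEquiv.symm
    rw [← hcard] at hdvd
    rcases hg with hg | hg
    · obtain ⟨a, ha, hVa⟩ := TwF4Par.card_lt hc' hodd hR (TwF4Par.J28_lt (S := S))
      exact not_dvd_card_normalizer hu hVa ha (TwF4Par.cent28 hR) (hdvd.trans (Subgroup.card_dvd_of_le hg))
    · obtain ⟨a, ha, hVa⟩ := TwF4Par.card_lt hc' hodd hR (TwF4Par.J17_lt (S := S))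
      exact not_dvd_card_normalizer hu hVa ha (TwF4Par.cent17 hR) (hdvd.trans (Subgroup.card_dvd_of_le hg))

end Prime

open Cfsg

theorem np_2F4 {T : Type*} [Group T] [Finite T] [IsSimpleGroup T] (h : Cfsg.Lie.Iso2F4 T) : NP 2 T := by
  have h2 : Fact (Nat.Prime 2) := ⟨Nat.prime_two⟩
  have hct := Cfsg.Agent.EvenType.ChevTwoF4.charTwo h
  obtain ⟨u, e, N, hu, huT, hord, hodd, hM⟩ := exists_prime_2F4 h
  have hu2 : u ≠ 2 := by
    rintro rfl
    exact hu.not_dvd dvd_rfl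
  intro V hV hV1
  obtain ⟨L, hL, hmax⟩ := Set.Finite.exists_le_maximal
    (s := {M : Subgroup T | IsTwoLocal M}) (Set.toFinite _)
    (a := Subgroup.normalizer (V : Set T)) ⟨V, hV, hV1, rfl⟩
  refine Der.mono (der_of_prime hu.prime huT ?_) hL
  obtain ⟨V', hV', hV'1, hLV⟩ := hmax.prop
  have hcore : pCore 2 ↥L ≠ ⊥ := by
    intro h1
    have h3 : V' ≤ L := by rw [hLV]; exact Subgroup.le_normalizer
    have h4 : (V'.subgroupOf L).Normal := by
      refine ⟨fun x hx g => ?_⟩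
      rw [Subgroup.mem_subgroupOf] at hx ⊢
      have h5 : (g : T) ∈ Subgroup.normalizer (V' : Set T) := hLV ▸ g.2
      have := (Subgroup.mem_normalizer_iff.1 h5 x).1 hx
      simpa using this
    have h5 := Lib.Cores.le_pCore h4 hV'.comap_subtype
    rw [h1, le_bot_iff, Subgroup.subgroupOf_eq_bot, disjoint_iff, inf_eq_left.2 h3] at h5
    exact hV'1 h5
  obtain ⟨W, hWp, hW1, hWL, hLW, hWeq⟩ : ∃ W : Subgroup T, IsPGroup 2 W ∧ W ≠ ⊥ ∧ W ≤ L ∧
      L ≤ Subgroup.normalizer (W : Set T) ∧ W = (pCore 2 ↥L).map L.subtype := by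
    refine ⟨(pCore 2 ↥L).map L.subtype, (Lib.Cores.pCore_isPGroup 2).map _,
      fun h => hcore ((Subgroup.map_eq_bot_iff_of_injective _ L.subtype_injective).1 h), Subgroup.map_subtype_le _, ?_,
      rfl⟩
    have hn : (pCore 2 ↥L).Normal := Lib.Cores.pCore_normal 2
    intro x hx
    rw [Subgroup.mem_normalizer_iff]
    intro y
    constructor
    · rintro ⟨z, hz, rfl⟩
      exact ⟨⟨x, hx⟩ * z * ⟨x, hx⟩⁻¹, hn.conj_mem z hz ⟨x, hx⟩, rfl⟩
    · rintro ⟨z, hz, hzy⟩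
      have h1 := hn.conj_mem z hz (⟨x, hx⟩ : L)⁻¹
      refine ⟨_, h1, ?_⟩
      have h2 : (z : T) = x * y * x⁻¹ := hzy
      show (x⁻¹ * z * x⁻¹⁻¹ : T) = y
      rw [h2]; group
  have hLeq : L = Subgroup.normalizer (W : Set T) :=
    le_antisymm hLW (hmax.le_of_ge ⟨W, hWp, hW1, rfl⟩ hLW)
  have hchar : Subgroup.centralizer (pCore 2 ↥L : Set ↥L) ≤ pCore 2 ↥L := by
    have := hct.2 W hWp hW1
    rw [← hLeq] at this
    exact this
  have hC : IsPGroup 2 ↥(Subgroup.centralizer (W : Set T)) := by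
    refine hWp.to_le ?_
    intro x hx
    have hxL : x ∈ L := by
      rw [hLeq]
      exact Subgroup.centralizer_le_normalizer _ hx
    have h1 : (⟨x, hxL⟩ : L) ∈ Subgroup.centralizer (pCore 2 ↥L : Set ↥L) := by
      rw [Subgroup.mem_centralizer_iff]
      intro y hy
      apply Subtype.ext
      exact Subgroup.mem_centralizer_iff.1 hx y (by rw [hWeq]; exact ⟨y, hy, rfl⟩)
    rw [hWeq]
    exact ⟨_, hchar h1, rfl⟩
  obtain ⟨a, ha⟩ := hWp.exists_card_eq
  rw [hLeq]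
  rcases lt_or_ge a e with hae | hae
  · exact H187.not_dvd_card_normalizer hu ha hae hC
  · refine hM _ ?_ ?_
    · intro htop
      rcases (Subgroup.normalizer_eq_top_iff.1 htop).eq_bot_or_eq_top with h6 | h6
      · exact hW1 h6
      · have h7 : u ∣ 2 ^ a := by
          rw [← ha, h6, Subgroup.card_top]
          exact huT
        exact hu2 ((Nat.prime_dvd_prime_iff_eq hu.prime Nat.prime_two).1 (hu.prime.dvd_of_dvd_pow h7))
    · intro h4
      have h5 : 2 ∣ W.index := (dvd_pow_self 2 (by norm_num)).trans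
        (h4.trans (Subgroup.index_dvd_of_le Subgroup.le_normalizer))
      have h6 := W.card_mul_index
      rw [ha, hord] at h6
      obtain ⟨c, hc⟩ := h5
      have h7 : 2 ^ (e + 1) ∣ 2 ^ e * N := by
        rw [← h6, hc]
        refine dvd_trans (pow_dvd_pow 2 (Nat.succ_le_succ hae)) ⟨c, ?_⟩
        rw [pow_succ]; ring
      rw [pow_succ] at h7
      exact hodd (Nat.dvd_of_mul_dvd_mul_left (by positivity) h7)

end Cfsg.Agent.H983.ElPar
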